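import Cfsg.Agent.Lib.KnownSimple.M22Lab.Data

set_option autoImplicit false
set_option maxRecDepth 100000

namespace Cfsg.Agent.Lib.KnownSimple.M22Lab

open Cfsg.Agent.Lib.KnownSimple.Lab Cfsg.Agent.Lib.KnownSimple.M22Lab Dat

theorem hL13_c0 : allI (fun i => lowOK D.T lN 12 0 wr13 i) 0 4054 = true := by decide +kernel
theorem hL13_u0 : ∀ i, i < 4054 → (fun i => lowOK D.T lN 12 0 wr13 i) i = true :=
  allI_join allI_start hL13_c0 rfl
theorem hL13_c1 : allI (fun i => lowOK D.T lN 12 0 wr13 i) 4054 4010 = true := by decide +kernel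
theorem hL13_u1 : ∀ i, i < 8064 → (fun i => lowOK D.T lN 12 0 wr13 i) i = true :=
  allI_join hL13_u0 hL13_c1 rfl
theorem hL13 : ∀ i, i < 8064 → (fun i => lowOK D.T lN 12 0 wr13 i) i = true := hL13_u1
theorem hL14_c0 : allI (fun i => lowOK D.T lN 12 0 wr14 i) 0 4838 = true := by decide +kernel
theorem hL14_u0 : ∀ i, i < 4838 → (fun i => lowOK D.T lN 12 0 wr14 i) i = true :=
  allI_join allI_start hL14_c0 rfl
theorem hL14_c1 : allI (fun i => lowOK D.T lN 12 0 wr14 i) 4838 3226 = true := by decide +kernel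
theorem hL14_u1 : ∀ i, i < 8064 → (fun i => lowOK D.T lN 12 0 wr14 i) i = true :=
  allI_join hL14_u0 hL14_c1 rfl
theorem hL14 : ∀ i, i < 8064 → (fun i => lowOK D.T lN 12 0 wr14 i) i = true := hL14_u1
theorem hLU_c0 : allI (fun i => lowOK D.T lN 12 3 wU i) 0 6818 = true := by decide +kernel
theorem hLU_u0 : ∀ i, i < 6818 → (fun i => lowOK D.T lN 12 3 wU i) i = true :=
  allI_join allI_start hLU_c0 rfl
theorem hLU_c1 : allI (fun i => lowOK D.T lN 12 3 wU i) 6818 1246 = true := by decide +kernel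
theorem hLU_u1 : ∀ i, i < 8064 → (fun i => lowOK D.T lN 12 3 wU i) i = true :=
  allI_join hLU_u0 hLU_c1 rfl
theorem hLU : ∀ i, i < 8064 → (fun i => lowOK D.T lN 12 3 wU i) i = true := hLU_u1
theorem hLV_c0 : allI (fun i => lowOK D.T lN 12 10 wV i) 0 1428 = true := by decide +kernel
theorem hLV_u0 : ∀ i, i < 1428 → (fun i => lowOK D.T lN 12 10 wV i) i = true :=
  allI_join allI_start hLV_c0 rfl
theorem hLV_c1 : allI (fun i => lowOK D.T lN 12 10 wV i) 1428 1428 = true := by decide +kernel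
theorem hLV_u1 : ∀ i, i < 2856 → (fun i => lowOK D.T lN 12 10 wV i) i = true :=
  allI_join hLV_u0 hLV_c1 rfl
theorem hLV_c2 : allI (fun i => lowOK D.T lN 12 10 wV i) 2856 1428 = true := by decide +kernel
theorem hLV_u2 : ∀ i, i < 4284 → (fun i => lowOK D.T lN 12 10 wV i) i = true :=
  allI_join hLV_u1 hLV_c2 rfl
theorem hLV_c3 : allI (fun i => lowOK D.T lN 12 10 wV i) 4284 1428 = true := by decide +kernel
theorem hLV_u3 : ∀ i, i < 5712 → (fun i => lowOK D.T lN 12 10 wV i) i = true :=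
  allI_join hLV_u2 hLV_c3 rfl
theorem hLV_c4 : allI (fun i => lowOK D.T lN 12 10 wV i) 5712 1428 = true := by decide +kernel
theorem hLV_u4 : ∀ i, i < 7140 → (fun i => lowOK D.T lN 12 10 wV i) i = true :=
  allI_join hLV_u3 hLV_c4 rfl
theorem hLV_c5 : allI (fun i => lowOK D.T lN 12 10 wV i) 7140 924 = true := by decide +kernel
theorem hLV_u5 : ∀ i, i < 8064 → (fun i => lowOK D.T lN 12 10 wV i) i = true :=
  allI_join hLV_u4 hLV_c5 rfl
theorem hLV : ∀ i, i < 8064 → (fun i => lowOK D.T lN 12 10 wV i) i = true := hLV_u5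

end Cfsg.Agent.Lib.KnownSimple.M22Lab
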