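import Cfsg.Agent.Lib.KnownSimple.M22Lab.Data

set_option autoImplicit false
set_option maxRecDepth 100000

namespace Cfsg.Agent.Lib.KnownSimple.M22Lab

open Cfsg.Agent.Lib.KnownSimple.Lab Cfsg.Agent.Lib.KnownSimple.M22Lab Dat

theorem hLK_c0 : allI (fun i => lowOK D.T lN 12 6 w3 i) 0 3000 = true := by decide +kernel
theorem hLK_u0 : ∀ i, i < 3000 → (fun i => lowOK D.T lN 12 6 w3 i) i = true :=
  allI_join allI_start hLK_c0 rfl
theorem hLK_c1 : allI (fun i => lowOK D.T lN 12 6 w3 i) 3000 3000 = true := by decide +kernel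
theorem hLK_u1 : ∀ i, i < 6000 → (fun i => lowOK D.T lN 12 6 w3 i) i = true :=
  allI_join hLK_u0 hLK_c1 rfl
theorem hLK_c2 : allI (fun i => lowOK D.T lN 12 6 w3 i) 6000 2064 = true := by decide +kernel
theorem hLK_u2 : ∀ i, i < 8064 → (fun i => lowOK D.T lN 12 6 w3 i) i = true :=
  allI_join hLK_u1 hLK_c2 rfl
theorem hLK : ∀ i, i < 8064 → (fun i => lowOK D.T lN 12 6 w3 i) i = true := hLK_u2
theorem hLP3_c0 : allI (fun i => lowOK D.T lN 12 2 pw3 i) 0 8064 = true := by decide +kernel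
theorem hLP3_u0 : ∀ i, i < 8064 → (fun i => lowOK D.T lN 12 2 pw3 i) i = true :=
  allI_join allI_start hLP3_c0 rfl
theorem hLP3 : ∀ i, i < 8064 → (fun i => lowOK D.T lN 12 2 pw3 i) i = true := hLP3_u0
theorem hLP7_c0 : allI (fun i => lowOK D.T lN 12 4 pw7 i) 0 1171 = true := by decide +kernel
theorem hLP7_u0 : ∀ i, i < 1171 → (fun i => lowOK D.T lN 12 4 pw7 i) i = true :=
  allI_join allI_start hLP7_c0 rfl
theorem hLP7_c1 : allI (fun i => lowOK D.T lN 12 4 pw7 i) 1171 1171 = true := by decide +kernel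
theorem hLP7_u1 : ∀ i, i < 2342 → (fun i => lowOK D.T lN 12 4 pw7 i) i = true :=
  allI_join hLP7_u0 hLP7_c1 rfl
theorem hLP7_c2 : allI (fun i => lowOK D.T lN 12 4 pw7 i) 2342 1171 = true := by decide +kernel
theorem hLP7_u2 : ∀ i, i < 3513 → (fun i => lowOK D.T lN 12 4 pw7 i) i = true :=
  allI_join hLP7_u1 hLP7_c2 rfl
theorem hLP7_c3 : allI (fun i => lowOK D.T lN 12 4 pw7 i) 3513 1171 = true := by decide +kernel
theorem hLP7_u3 : ∀ i, i < 4684 → (fun i => lowOK D.T lN 12 4 pw7 i) i = true :=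
  allI_join hLP7_u2 hLP7_c3 rfl
theorem hLP7_c4 : allI (fun i => lowOK D.T lN 12 4 pw7 i) 4684 1171 = true := by decide +kernel
theorem hLP7_u4 : ∀ i, i < 5855 → (fun i => lowOK D.T lN 12 4 pw7 i) i = true :=
  allI_join hLP7_u3 hLP7_c4 rfl
theorem hLP7_c5 : allI (fun i => lowOK D.T lN 12 4 pw7 i) 5855 1171 = true := by decide +kernel
theorem hLP7_u5 : ∀ i, i < 7026 → (fun i => lowOK D.T lN 12 4 pw7 i) i = true :=
  allI_join hLP7_u4 hLP7_c5 rfl
theorem hLP7_c6 : allI (fun i => lowOK D.T lN 12 4 pw7 i) 7026 1038 = true := by decide +kernel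
theorem hLP7_u6 : ∀ i, i < 8064 → (fun i => lowOK D.T lN 12 4 pw7 i) i = true :=
  allI_join hLP7_u5 hLP7_c6 rfl
theorem hLP7 : ∀ i, i < 8064 → (fun i => lowOK D.T lN 12 4 pw7 i) i = true := hLP7_u6

end Cfsg.Agent.Lib.KnownSimple.M22Lab
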